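import Cfsg.Agent.SF.Fus
import Cfsg.Agent.H9.Qd

/-! Characteristic subgroups of a Sylow subgroup of `Qd(p)` do not control fusion. -/

set_option autoImplicit false
set_option linter.unusedSectionVars false

namespace Cfsg.Agent.SF

open Subgroup Matrix MatrixGroups H1 H9

universe u

variable {p : ℕ}

theorem exists_qd_two : Nonempty (qd 2 ≃* Equiv.Perm (Fin 4)) := by
  have hm : ∀ (M N : SL(2, ZMod 2)) (v w : Fin 2 → ZMod 2),
      affPerm (M * N) (v + M.1 *ᵥ w) = affPerm M v * affPerm N w := fun M N v w => by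
    ext1 x
    show v + M.1 *ᵥ w + (M.1 * N.1) *ᵥ x = v + M.1 *ᵥ (w + N.1 *ᵥ x)
    rw [mulVec_add, mulVec_mulVec, add_assoc]
  choose π τ hπ using exists_affQd (p := 2)
  have hπ' : ∀ M v, π (affQd M v) = M ∧ τ (affQd M v) = v := fun M v =>
    let h := affQd_inj (hπ (affQd M v)); ⟨h.1.symm, h.2.symm⟩
  let f : qd 2 →* Equiv.Perm (Fin 2 → ZMod 2) := MonoidHom.mk' (fun q => affPerm (π q) (τ q))
    fun a b => by
      obtain ⟨M, v, rfl⟩ := exists_affQd a
      obtain ⟨N, w, rfl⟩ := exists_affQd b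
      simp only [affQd_mul, hπ', hm]
  have hf : ∀ M v, f (affQd M v) = affPerm M v := fun M v => by
    show affPerm (π _) (τ _) = _
    simp only [hπ']
  have h1 : Function.Injective f := (injective_iff_map_eq_one f).2 fun a ha => by
    obtain ⟨M, v, rfl⟩ := exists_affQd a
    rw [hf] at ha
    have h : ∀ x, v + M.1 *ᵥ x = x := fun x => congrArg (fun σ : Equiv.Perm _ => σ x) ha
    have hv : v = 0 := by simpa using h 0
    subst hv
    have hM : M = 1 := by
      ext i j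
      simpa [Matrix.one_apply, Pi.single_apply] using congrFun (h (Pi.single j 1)) i
    rw [hM, affQd_one]
  have h2 : Function.Surjective f := fun σ =>
    let ⟨M, v, h⟩ := exists_affPerm_two σ; ⟨affQd M v, by rw [hf]; exact (Equiv.ext h).symm⟩
  exact ⟨(MulEquiv.ofBijective f ⟨h1, h2⟩).trans
    (Equiv.permCongrHom (Fintype.equivFinOfCardEq (by simp)))⟩

theorem uu_inj {c d : ZMod p} (h : uu c = uu d) : c = d := by
  simpa [coe_uu] using congrArg (fun M : SL(2, ZMod p) => M.1 0 1) h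

/-- an automorphism of the Sylow subgroup moving the translation subgroup -/
theorem exists_aut_qdSyl : ∃ φ : MulAut (qdSyl p), ∀ (x : qdSyl p) (c : ZMod p) v,
    (x : qd p) = affQd (uu c) v → ((φ x : qdSyl p) : qd p) = affQd (uu (v 1)) ![c * v 1 - v 0, c] := by
  choose π τ hπ using fun x : qdSyl p => mem_qdSyl.1 x.2
  let f : qdSyl p → qdSyl p := fun x =>
    ⟨affQd (uu (τ x 1)) ![π x * τ x 1 - τ x 0, π x], mem_qdSyl.2 ⟨_, _, rfl⟩⟩
  have hf : ∀ (x : qdSyl p) (c : ZMod p) v, (x : qd p) = affQd (uu c) v →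
      ((f x : qdSyl p) : qd p) = affQd (uu (v 1)) ![c * v 1 - v 0, c] := fun x c v h => by
    obtain ⟨h1, h2⟩ := affQd_inj ((hπ x).symm.trans h)
    show affQd _ _ = _
    rw [uu_inj h1, h2]
  have hi : Function.Involutive f := fun x => Subtype.ext <| by
    rw [hf _ _ _ (hf x _ _ (hπ x)), hπ x]
    congr 1
    ext i
    fin_cases i <;> simp
    ring
  refine ⟨{ hi.toPerm with map_mul' := fun x y => Subtype.ext ?_ }, hf⟩
  show ((f (x * y) : qdSyl p) : qd p) = f x * f y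
  rw [hf (x * y) _ _ (by rw [coe_mul, hπ x, hπ y, affQd_mul, uu_mul]), hf x _ _ (hπ x),
    hf y _ _ (hπ y), affQd_mul, uu_mul]
  congr 1
  · simp [coe_uu, mulVec, dotProduct]
  ext i
  fin_cases i <;> simp [coe_uu, mulVec, dotProduct]
  ring

variable [hp : Fact p.Prime]

theorem norm_le_of_char {W : Subgroup (qd p)} (hW : W ≤ qdSyl p) (h0 : W ≠ ⊥)
    (hc : ∀ (φ : MulAut (qdSyl p)) (x : qdSyl p), (x : qd p) ∈ W → ((φ x : qdSyl p) : qd p) ∈ W) :
    normalizer (W : Set (qd p)) ≤ normalizer (qdSyl p : Set (qd p)) := by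
  intro n hn
  obtain ⟨M, w, rfl⟩ := exists_affQd n
  by_cases hM : M 1 0 = 0
  · refine FT.mem_normalizer_of_cj_le ?_
    rintro _ ⟨x, hx, rfl⟩
    obtain ⟨c, hc⟩ := hx
    refine ⟨M 0 0 * M 0 0 * c, ?_⟩
    have hd := M.det_coe
    rw [det_fin_two, hM] at hd
    simp only [MulEquiv.coe_toMonoidHom, MulAut.conj_apply, map_mul, map_inv, piQd_affQd, hc]
    rw [mul_inv_eq_iff_eq_mul]
    ext i j
    fin_cases i <;> fin_cases j <;> simp [coe_uu, Matrix.mul_apply, hM]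
    linear_combination (-(M 0 0 * c)) * hd
  exfalso
  have hT : qdSyl p ≤ normalizer (W : Set (qd p)) := fun t ht => FT.mem_normalizer_of_cj_le <| by
    rintro _ ⟨x, hx, rfl⟩
    exact hc (MulAut.conj ⟨t, ht⟩) ⟨x, hW hx⟩ hx
  have h1 : (normalizer (W : Set (qd p))).map (piQd p) = ⊤ :=
    eq_top_of_uuSub_le (fun N hN => ⟨affQd N 0, hT (by
      show piQd p _ ∈ uuSub p
      rwa [piQd_affQd]), piQd_affQd _ _⟩) ⟨_, hn, piQd_affQd _ _⟩ hM
  have h2 : normalizer (W : Set (qd p)) = ⊤ := by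
    rw [← comap_map_eq_self ((ker_le_comap _ _).trans hT), h1, comap_top]
  have h3 : ∀ g, ∀ x ∈ W, g * x * g⁻¹ ∈ W := (normalizer_eq_top_iff.1 h2).conj_mem' |> fun _ g x hx =>
    (normalizer_eq_top_iff.1 h2).conj_mem x hx g
  have h4 : ∀ c v, affQd (uu c) v ∈ W → c = 0 := fun c v h => by
    obtain ⟨d, hd⟩ := hW (h3 (affQd (ll 1) 0) _ h)
    simp only [map_mul, map_inv, piQd_affQd, ll_inv] at hd
    simpa [coe_uu, coe_ll] using congrArg (fun M : SL(2, ZMod p) => M.1 1 0) hd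
  obtain ⟨φ, hφ⟩ := exists_aut_qdSyl (p := p)
  have h5 : ∀ c v, affQd (uu c) v ∈ W → v 1 = 0 := fun c v h =>
    h4 _ _ (hφ ⟨_, hW h⟩ c v rfl ▸ hc φ ⟨_, hW h⟩ h)
  refine h0 (eq_bot_iff.2 fun x hx => ?_)
  obtain ⟨c, v, rfl⟩ := mem_qdSyl.1 (hW hx)
  have h6 := h5 c v hx
  obtain rfl := h4 c v hx
  have h7 := h3 (affQd (ll 1) 0) _ hx
  rw [uu_zero, affQd_conj, ← uu_zero] at h7
  have h8 := h5 _ _ h7
  have : v = 0 := by
    ext i
    fin_cases i
    · simpa [coe_ll, mulVec, dotProduct, h6] using h8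
    · exact h6
  rw [this, uu_zero, affQd_one]
  exact one_mem _

theorem not_ctlF_of_qd {X : Type u} [Group X] [Finite X] (e : X ≃* qd p)
    {𝓦 : Set (∀ (Q : Type u) [Group Q], Subgroup Q)} (h𝓦 : ∀ W ∈ 𝓦, IsCharPFunctor p W) :
    ¬ CtlF p 𝓦 X := fun h => by
  have hT := isSylowIn_map_top (isSylowIn_qdSyl (p := p)) (f := e.symm.toMonoidHom)
    e.symm.surjective
  set T := (qdSyl p).map e.symm.toMonoidHom with hTd
  have h7 : T.map e.toMonoidHom = qdSyl p := by
    rw [hTd, Subgroup.map_map]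
    convert Subgroup.map_id _
    ext x
    simp
  have h6 := (h.fctl h𝓦 hT).map_injective (f := e.toMonoidHom) e.injective
  rw [h7, map_top_of_surjective _ e.surjective] at h6
  refine not_fctl_qd (h6.mono_set ?_)
  rintro _ ⟨x, ⟨_, ⟨W, hW, rfl⟩, -, hx⟩, rfl⟩
  let ε : T ≃* qdSyl p := (e.subgroupMap T).trans (MulEquiv.subgroupCongr h7)
  have hε : ∀ t : T, ((ε t : qdSyl p) : qd p) = e t := fun _ => rfl
  refine norm_le_of_char (W := (inducedFunctor W T).map e.toMonoidHom)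
    (h7 ▸ Subgroup.map_mono (ind_le _ _)) (fun h0 => ?_) ?_ (le_normalizer_map _ ⟨x, hx, rfl⟩)
  · rw [map_eq_bot_iff_of_injective _ e.injective, inducedFunctor,
      map_eq_bot_iff_of_injective _ T.subtype_injective] at h0
    refine (h𝓦 W hW).1 T hT.isPGroup (ε.toEquiv.nontrivial_congr.2 ?_) h0
    refine (nontrivial_iff_ne_bot _).2 fun h1 => ?_
    have := mem_qdSyl.2 ⟨(1 : ZMod p), 0, rfl⟩
    rw [h1, mem_bot, ← affQd_one, ← uu_zero] at this
    exact one_ne_zero (uu_inj (affQd_inj this).1)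
  · rintro φ y ⟨_, ⟨t, ht, rfl⟩, e1⟩
    have e2 : y = ε t := Subtype.ext e1.symm
    have := ((h𝓦 W hW).2 T T hT.isPGroup (ε.trans (φ.trans ε.symm))).le ⟨t, ht, rfl⟩
    refine ⟨_, ⟨_, this, rfl⟩, ?_⟩
    rw [e2]
    exact (hε _).symm.trans (by simp)

end Cfsg.Agent.SF
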